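-- Certificate checks for ONHT.
import Cfsg.Agent.Lib.Compute.TC.ONHT.Data
set_option autoImplicit false
set_option maxRecDepth 1000000

open Cfsg.Agent.Lib.Compute.ToddCoxeterCore Cfsg.Agent.Lib.Compute.ToddCoxeterPresented Cfsg.Agent.Lib.Compute.TCFast

namespace Cfsg.Agent.Lib.Compute.TC.ONHT

theorem rel0 : allFrom (chkRelF cfg relsL) (nat_lit 10204) (nat_lit 0) = true := by decide +kernel

end Cfsg.Agent.Lib.Compute.TC.ONHT
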